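import Mathlib
import Cfsg.Agent.Lib.Helper56.TC
import Cfsg.Agent.Lib.Helper56.Fi24U6.C0
set_option autoImplicit false
set_option maxRecDepth 1000000

namespace Cfsg.Agent.Lib.Helper56.Fi24U6

open Cfsg.Agent.Lib.Helper56.TC Cfsg.Agent.Lib.Helper56.TC.Tabs

theorem uN_576 : Upto T.chkName 576 := upto_add (upto_zero T.chkName) rfl cN_0
theorem uV_576 : Upto T.chkV 576 := upto_add (upto_zero T.chkV) rfl cV_0

/-- The certificate is valid. -/
theorem cert : T.Cert where
  h0 := by decide +kernel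
  hrx := by decide +kernel
  hs0 := by decide +kernel
  hname := uN_576
  hV := uV_576

theorem orep_0 : T.orep 0 < T.N ∧ T.ol (T.orep 0) = 0 := by decide +kernel
theorem cnt_0 : countLt (fun v => Nat.beq (T.ol v) 0) T.N = 1 := by decide +kernel
theorem orep_1 : T.orep 1 < T.N ∧ T.ol (T.orep 1) = 1 := by decide +kernel
theorem cnt_1 : countLt (fun v => Nat.beq (T.ol v) 1) T.N = 35 := by decide +kernel
theorem orep_2 : T.orep 2 < T.N ∧ T.ol (T.orep 2) = 2 := by decide +kernel
theorem cnt_2 : countLt (fun v => Nat.beq (T.ol v) 2) T.N = 105 := by decide +kernel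
theorem orep_3 : T.orep 3 < T.N ∧ T.ol (T.orep 3) = 3 := by decide +kernel
theorem cnt_3 : countLt (fun v => Nat.beq (T.ol v) 3) T.N = 140 := by decide +kernel
theorem orep_4 : T.orep 4 < T.N ∧ T.ol (T.orep 4) = 4 := by decide +kernel
theorem cnt_4 : countLt (fun v => Nat.beq (T.ol v) 4) T.N = 7 := by decide +kernel
theorem orep_5 : T.orep 5 < T.N ∧ T.ol (T.orep 5) = 5 := by decide +kernel
theorem cnt_5 : countLt (fun v => Nat.beq (T.ol v) 5) T.N = 140 := by decide +kernel
theorem orep_6 : T.orep 6 < T.N ∧ T.ol (T.orep 6) = 6 := by decide +kernel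
theorem cnt_6 : countLt (fun v => Nat.beq (T.ol v) 6) T.N = 7 := by decide +kernel
theorem orep_7 : T.orep 7 < T.N ∧ T.ol (T.orep 7) = 7 := by decide +kernel
theorem cnt_7 : countLt (fun v => Nat.beq (T.ol v) 7) T.N = 105 := by decide +kernel
theorem orep_8 : T.orep 8 < T.N ∧ T.ol (T.orep 8) = 8 := by decide +kernel
theorem cnt_8 : countLt (fun v => Nat.beq (T.ol v) 8) T.N = 35 := by decide +kernel
theorem orep_9 : T.orep 9 < T.N ∧ T.ol (T.orep 9) = 9 := by decide +kernel
theorem cnt_9 : countLt (fun v => Nat.beq (T.ol v) 9) T.N = 1 := by decide +kernel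

end Cfsg.Agent.Lib.Helper56.Fi24U6
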